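import Cfsg.Agent.H1.HHExc

/-! Hall–Higman's bound of the `p`-length by the derived length of a Sylow `p`-subgroup. -/

set_option autoImplicit false

open Module Subgroup
open scoped commutatorElement IsMulCommutative

namespace Cfsg.Agent.H1

section RestrictAct

variable {A G : Type*} [Group A] [Group G] (φ : A →* MulAut G) (N : Subgroup G)
  (h : ∀ a, ∀ x ∈ N, φ a x ∈ N)

/-- The action induced on an invariant subgroup. -/
def restrictAct : A →* MulAut N where
  toFun a :=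
    { toFun := fun x => ⟨φ a x, h a x x.2⟩
      invFun := fun x => ⟨φ a⁻¹ x, h _ x x.2⟩
      left_inv := fun x => Subtype.ext (by simp)
      right_inv := fun x => Subtype.ext (by simp)
      map_mul' := fun x y => Subtype.ext (by simp) }
  map_one' := by ext; simp
  map_mul' a b := by ext; simp

@[simp] theorem coe_restrictAct (a : A) (x : N) : (restrictAct φ N h a x : G) = φ a x := rfl

end RestrictAct

theorem eq_one_of_card_le_sq {T : Type*} [CommGroup T] [Finite T] {p : ℕ} (hp : p.Prime)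
    (hp2 : p ≠ 2) (hT : (Nat.card T).Coprime p) (hc : Nat.card T ≤ p ^ 2) {Y : Subgroup (MulAut T)}
    (hY : IsPGroup p Y) {z : MulAut T} (hz : z ∈ ⁅Y, Y⁆) (hzc : z ∈ centralizer (Y : Set (MulAut T)))
    (hzp : z ^ p = 1) (hfpf : ∀ w, z w = w → w = 1) : z = 1 := by
  have := Fact.mk hp
  by_contra hz1
  have hzY : z ∈ Y := commutator_le_self _ hz
  have hzo : orderOf z = p := orderOf_eq_prime hzp hz1
  obtain ⟨c, hcY, hco, hzc'⟩ : ∃ c ∈ Y, orderOf c = p ∧ z ∉ zpowers c := by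
    by_contra h
    push Not at h
    have key : ∀ H : Subgroup Y, Nat.card H = p → H = zpowers ⟨z, hzY⟩ := fun H hH => by
      obtain ⟨c, rfl⟩ := (Subgroup.isCyclic_iff_exists_zpowers_eq_top H).mp
        (isCyclic_of_prime_card hH)
      rw [Nat.card_zpowers] at hH
      obtain ⟨n, hn⟩ := h c c.2 (by rwa [orderOf_coe])
      exact (eq_of_le_of_card_le (zpowers_le.mpr (mem_zpowers_iff.mpr ⟨n, Subtype.ext hn⟩)) (by
        rw [Nat.card_zpowers, Nat.card_zpowers, hH, ← orderOf_coe, hzo])).symm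
    have := H3.isCyclic_of_unique hp2 hY fun H K hH hK => (key H hH).trans (key K hK).symm
    rw [commutator_eq_bot_iff_le_centralizer.mpr (le_centralizer Y)] at hz
    exact hz1 hz
  have hcz : Commute z c := (mem_centralizer_iff.mp hzc c hcY).symm
  obtain ⟨i, w, h1, h2⟩ := exists_fixed_not_fixed hp hT hzp hco hcz hzc'
  have hw1 : w ≠ 1 := fun h => h2 (by rw [h, map_one])
  set e := c ^ i * z
  have hez : Commute z e := (hcz.zpow_right i).mul_right (Commute.refl z)
  have hep : e ^ p = 1 := by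
    rw [(hcz.zpow_right i).symm.mul_pow, hzp, mul_one, ← zpow_natCast, ← zpow_mul, mul_comm,
      zpow_mul, zpow_natCast, ← hco, pow_orderOf_eq_one, one_zpow]
  have he1 : e ≠ 1 := fun h => hzc' (by
    rw [eq_inv_of_mul_eq_one_right h]; exact inv_mem ⟨i, rfl⟩)
  obtain ⟨j, w', h3, h4⟩ := exists_fixed_not_fixed hp hT hzp (orderOf_eq_prime hep he1) hez
    fun h => hw1 (hfpf w (zpowers_le.mpr (show e ∈ MulAction.stabilizer (MulAut T) w from h1) h))
  have hD : ∀ a : MulAut T, Commute z a → ∀ w, a w = w → w ≠ 1 →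
      p < Nat.card (MonoidHom.ker (commEnd a)) := fun a ha w hw hw1 => by
    simpa using lt_card_of_invariant hp (m := 0) (h := z) (by simpa using hzp)
      (D := MonoidHom.ker (commEnd a)) (fun v hv => mem_ker_commEnd.mpr (by
        rw [← MulAut.mul_apply, ← ha.eq, MulAut.mul_apply, mem_ker_commEnd.mp hv]))
      (mem_ker_commEnd.mpr hw) (by simpa using fun h => hw1 (hfpf w h))
  have hd1 := hD e hez w h1 hw1
  have hd2 := hD _ ((hez.zpow_right j).mul_right (Commute.refl z)) w' h3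
    fun h => h4 (by rw [h, map_one])
  have hinf : MonoidHom.ker (commEnd e) ⊓ MonoidHom.ker (commEnd (e ^ j * z)) = ⊥ := by
    refine eq_bot_iff.mpr fun v hv => hfpf v ?_
    have a1 : e ∈ MulAction.stabilizer (MulAut T) v := mem_ker_commEnd.mp (mem_inf.mp hv).1
    have a2 : e ^ j * z ∈ MulAction.stabilizer (MulAut T) v := mem_ker_commEnd.mp (mem_inf.mp hv).2
    exact (mul_mem_cancel_left (zpow_mem a1 j)).mp a2
  have h5 := card_le_card_group (MonoidHom.ker (commEnd e) ⊔ MonoidHom.ker (commEnd (e ^ j * z)))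
  rw [card_sup_of_inf_eq_bot le_normalizer_of_normal hinf] at h5
  exact absurd (h5.trans hc) (not_le.mpr (by rw [sq]; exact Nat.mul_lt_mul'' hd1 hd2))

theorem commutator_eq_bot_of_small {W : Type*} [CommGroup W] [Finite W] {p : ℕ} (hp : p.Prime)
    (hp2 : p ≠ 2) (hW : (Nat.card W).Coprime p) {Y : Subgroup (MulAut W)} (hY : IsPGroup p Y)
    (h : ∀ z ∈ ⁅Y, Y⁆, z ^ p = 1 ∧ Nat.card (MonoidHom.range (commEnd z)) ≤ p ^ 2) :
    ⁅Y, Y⁆ = ⊥ := by
  have := Fact.mk hp
  have := hY.isNilpotent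
  by_contra h0
  obtain ⟨⟨z, hz⟩, hz1⟩ := ne_bot_iff_exists_ne_one.mp (L.inf_centralizer_ne_bot_of_isNilpotent
    (commutator_le_self Y) (le_normalizer_commutator le_normalizer le_normalizer) h0)
  obtain ⟨hz, hzc⟩ := mem_inf.mp hz
  obtain ⟨h1, h2⟩ := h z hz
  let ψ := restrictAct Y.subtype (MonoidHom.range (commEnd z)) (by
    rintro a _ ⟨w, rfl⟩
    exact ⟨_, (commEnd_comm (mem_centralizer_iff.mp hzc a a.2) w).symm⟩)
  have hzY := commutator_le_self Y hz
  have h3 := eq_one_of_card_le_sq hp hp2 (hW.coprime_dvd_left (card_subgroup_dvd_card _)) h2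
    (hY.of_surjective _ ψ.rangeRestrict_surjective) (z := ψ ⟨z, hzY⟩) (by
      rw [MonoidHom.range_eq_map, ← map_commutator]
      refine mem_map_of_mem _ ?_
      rw [← map_subtype_commutator] at hz
      obtain ⟨y, hy, rfl⟩ := hz
      exact hy)
    (mem_centralizer_iff.mpr (by
      rintro _ ⟨a, rfl⟩
      rw [← map_mul, ← map_mul]
      exact congrArg ψ (Subtype.ext (mem_centralizer_iff.mp hzc a a.2))))
    (by rw [← map_pow, ← map_one ψ]; exact congrArg ψ (Subtype.ext h1))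
    fun w hw => Subtype.ext (eq_one_of_fixed_of_mem_range h1 hW w.2 (congrArg Subtype.val hw))
  refine hz1 (Subtype.ext (MulEquiv.ext fun w => mem_ker_commEnd.mp
    (eq_one_of_fixed_of_mem_range h1 hW ⟨w, rfl⟩ ?_)))
  exact congrArg Subtype.val (DFunLike.congr_fun h3 ⟨_, w, rfl⟩)

variable {G : Type*} [Group G] {k V : Type*} [Field k] [AddCommGroup V] [Module k V]

theorem commutator_le_centralizer_of_rep [IsAlgClosed k] [FiniteDimensional k V] [Finite G] {p : ℕ}
    (hp : p.Prime) (hp2 : p ≠ 2) [CharP k p] (ρ : G →* End k V) (hρ : ∀ g, ρ g = 1 → g = 1)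
    {P Q : Subgroup G} (hP : IsPGroup p P) (hQ : (Nat.card Q).Coprime p)
    (hPQ : P ≤ normalizer (Q : Set G)) (hr : ∀ a ∈ ⁅P, P⁆, (ρ a - 1) ^ 2 = 0)
    (hr' : ∀ a ∈ ⁅P, P⁆, ∀ b ∈ P, (ρ a - 1) * (ρ b - 1) ^ 2 = 0) :
    ⁅P, P⁆ ≤ centralizer (Q : Set G) := by
  classical
  have := Fact.mk hp
  have hpE : (p : End k V) = 0 := cast_end_eq_zero p
  have hp3 : 3 ≤ p := by have := hp.two_le; omega
  set A := ⁅P, P⁆
  replace hr : ∀ a ∈ A, (ρ a - 1) ^ (p ^ (0 + 1) - 1) = 0 := fun a ha =>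
    pow_eq_zero_of_le (by simp; omega) (hr a ha)
  have hexp : ∀ x ∈ A, x ^ p ^ (0 + 1) = 1 := fun x hx => hρ _ (by
    rw [map_pow, ← sub_eq_zero, ← sub_one_pow_pow hp hpE]
    exact pow_eq_zero_of_le (Nat.sub_le _ _) (hr x hx))
  have hAP : A ≤ P := commutator_le_self _
  have hPA : P ≤ normalizer (A : Set G) := le_normalizer_commutator le_normalizer le_normalizer
  rw [← commutator_eq_bot_iff_le_centralizer']
  by_contra hnt
  have hPQc : (Nat.card P).Coprime (Nat.card Q) := (coprime_card_of_isPGroup hP hQ).symm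
  obtain ⟨q, hq, hqQ, R, hRQ, hR, hPR, hnt', hmin⟩ := exists_minimal_nontrivial_isPGroup hPQ hPQc
    (Or.inl (isSolvable_of_isPGroup hP)) hnt
  have := Fact.mk hq
  have hqp : q ≠ p := by
    rintro rfl
    exact hp.one_lt.ne' (Nat.eq_one_of_dvd_coprimes hQ hqQ dvd_rfl)
  have hc : ⁅R, R⁆ ≤ centralizer (R : Set G) := minimal_class_two hR hPR hAP hPA
    ((coprime_of_le hPQc hAP le_rfl).coprime_dvd_right hqQ) hnt' hmin
  set Z := ⁅R, R⁆ with hZ
  have hZR : Z ≤ R := commutator_le_self _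
  have hZc : IsMulCommutative Z := le_centralizer_iff_isMulCommutative.mp
    (hc.trans (centralizer_le hZR))
  have hPZ : P ≤ normalizer (Z : Set G) := le_normalizer_commutator hPR hPR
  have hzZ' : ∀ Z ≤ R, Z ≤ centralizer (R : Set G) → P ≤ normalizer (Z : Set G) →
      A ≤ centralizer (Z : Set G) := by
    intro Z hZR hc hPZ x hx
    by_contra h
    rw [mem_centralizer_iff] at h
    push Not at h
    obtain ⟨t, ht, h⟩ := h
    obtain ⟨_, -, -, ⟨S, hS, -, hS'⟩, -⟩ := hall_higman_B hp ρ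
      (hQ.coprime_dvd_left (card_dvd_of_le (hZR.trans hRQ))) (hPZ (hAP hx)) (m := 0)
      ⟨t, ht, fun h1 => h (by simpa using commutatorElement_eq_one_iff_mul_comm.mp (hρ _ h1))⟩
      (hr x hx) (Nat.sub_lt (pow_pos hp.pos _) one_pos)
    exact hS' (le_centralizer_iff_isMulCommutative.mp
      (hS.trans (hc.trans (centralizer_le (hS.trans hZR)))))
  have hzZ := hzZ' Z hZR hc hPZ
  obtain ⟨c, hcA, hxy⟩ := SetLike.not_le_iff_exists.mp
    (mt commutator_eq_bot_iff_le_centralizer'.mpr hnt')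
  have hcP : c ∈ P := hAP hcA
  have hcR : ∀ r ∈ R, ⁅c, r⁆ ∈ R := fun r hr =>
    mul_mem (conj_mem_of_le_normalizer hPR hcP hr) (inv_mem hr)
  obtain ⟨r, hrR, s, hsR, ht⟩ : ∃ r ∈ R, ∃ s ∈ R, ⁅⁅c, r⁆, s⁆ ≠ 1 := by
    by_contra h
    push Not at h
    have h1 := hzZ' _ inf_le_left inf_le_right (le_normalizer_inf hPR (le_normalizer_centralizer hPR))
    refine hxy (zpowers_le.mp (le_centralizer_of_commutator_le (zpowers_le.mpr (hPR hcP))
      (coprime_of_le hPQc (zpowers_le.mpr hcP) hRQ) (H := R ⊓ centralizer (R : Set G))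
      (commutator_zpowers_le (le_normalizer_inf hPR (le_normalizer_centralizer hPR) hcP)
        fun r hr => ?_) (zpowers_le.mpr (h1 hcA))))
    rw [← commutatorElement_inv]
    exact inv_mem (mem_inf.mpr ⟨hcR r hr, mem_centralizer_iff.mpr fun s hs =>
      (commutatorElement_eq_one_iff_mul_comm.mp (h r hr s hs)).symm⟩)
  set t := ⁅⁅c, r⁆, s⁆ with htdef
  have htZ : t ∈ Z := commutator_mem_commutator (hcR r hrR) hsR
  have hqk : (q : k) ≠ 0 := cast_ne_zero_of_prime_ne hp hq hqp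
  obtain ⟨W₀, h1, h2, h3, -⟩ := exists_nofix_subspace (ρ.comp Z.subtype) (zpowers ⟨t, htZ⟩)
    (cast_card_ne_zero_of_isPGroup hq ((hR.to_le hZR).to_subgroup _) hqk)
    ⟨_, mem_zpowers _, fun h => ht (hρ _ h)⟩
  obtain ⟨μ, v, hv, hv0, hμ⟩ := exists_weight_vector (ρ.comp Z.subtype) h1 h2 fun i j v _ => by
    rw [← End.mul_apply, ← map_mul, mul_comm, map_mul, End.mul_apply]
  let U : Submodule k V := ⨅ z : Z, (ρ z).eigenspace (μ z)
  have hU : ∀ {u}, u ∈ U ↔ ∀ z : Z, ρ z u = μ z • u := by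
    intro u; simp [U]
  have hCU : ∀ g ∈ centralizer (Z : Set G), ∀ u ∈ U, ρ g u ∈ U := fun g hg u hu => hU.mpr fun z => by
    rw [← End.mul_apply, ← map_mul, mem_centralizer_iff.mp hg z z.2, map_mul, End.mul_apply,
      hU.mp hu, map_smul]
  have hRU : ∀ g ∈ R, ∀ u ∈ U, ρ g u ∈ U := fun g hg => hCU g (le_centralizer_iff.mp hc hg)
  suffices h4 : ρ t v = v from hv0 (h3 v hv fun a ha => by
    obtain ⟨n, rfl⟩ := mem_powers_iff_mem_zpowers.mpr ha
    rw [map_pow, End.pow_apply]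
    exact Function.iterate_fixed h4 n)
  by_cases hPU : ∀ g ∈ P, ∀ u ∈ U, ρ g u ∈ U
  swap
  · push Not at hPU
    obtain ⟨b, hb, hbU⟩ := hPU
    obtain ⟨n, hn⟩ := hP ⟨b, hb⟩
    obtain ⟨_, -, ht, -, a1, a2⟩ := exists_weight_orbit (ρ.comp Z.subtype)
      (MulAut.toPerm Z (conjAutOf (hPZ hb))) (ρ b) (cov_conjAutOf ρ (hPZ hb)) (pow_pos hp.pos n)
      (by rw [← map_pow, conjAutOf_pow_eq_one _ (by
        rw [show b ^ p ^ n = 1 from congrArg Subtype.val hn]; exact one_mem _), map_one]) μ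
    obtain ⟨j, -, rfl⟩ := (Nat.dvd_prime_pow hp).mp ht
    obtain ⟨d, hd⟩ : ∃ d, p ^ j = 3 + d := by
      refine Nat.exists_eq_add_of_le (hp3.trans (Nat.le_self_pow ?_ p))
      rintro rfl
      obtain ⟨u, hu, hu'⟩ := hbU
      exact hu' (hU.mpr (by simpa using a1 u (hU.mp hu)))
    have hcU : ∀ u ∈ U, ρ c u = u := fun u hu => by
      have a3 : ∀ g ∈ P, (ρ (g⁻¹ * c * g) - 1) u ∈ U := fun g hg =>
        U.sub_mem (hCU _ (hzZ (conj_mem_of_le_normalizer' hPA hg hcA)) u hu) hu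
      have a4 : ∀ g, ρ g ((ρ (g⁻¹ * c * g) - 1) u) = (ρ c - 1) (ρ g u) := fun g => by
        simp only [LinearMap.sub_apply, map_sub, End.one_apply, ← End.mul_apply, ← map_mul]
        congr 3; group
      have a5 := a2 (fun s => if s < 3 then ((-1) ^ s * (2 : ℕ).choose s : ℤ) •
        (ρ ((b ^ s)⁻¹ * c * b ^ s) - 1) u else 0) (fun s => hU.mp (by
          split_ifs
          · exact U.smul_of_tower_mem _ (a3 _ (pow_mem hb s))
          · exact U.zero_mem)) (by
          rw [hd, Finset.sum_range_add, Finset.sum_eq_zero (s := Finset.range d) (by simp)]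
          have := LinearMap.congr_fun (hr' c hcA b hb) u
          simp only [Finset.sum_range_succ, Finset.sum_range_zero, ← map_pow, map_zsmul, a4,
            Nat.ofNat_pos, Nat.one_lt_ofNat, Nat.lt_add_one, if_true]
          refine Eq.trans ?_ this
          simp only [LinearMap.sub_apply, map_sub, End.one_apply, sq, map_mul, End.mul_apply]
          simp
          abel) 0 (by omega)
      simpa [sub_eq_zero] using a5
    have a6 : ∀ x y : G, (∀ u ∈ U, ρ x u = u) → y ∈ R → ∀ u ∈ U, ρ ⁅x, y⁆ u = u :=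
      fun x y hx hy u hu => by
        have e : ρ x⁻¹ (ρ y⁻¹ u) = ρ y⁻¹ u := by
          conv_lhs => rw [← hx _ (hRU _ (inv_mem hy) u hu)]
          rw [← End.mul_apply, rep_inv_mul, End.one_apply]
        rw [commutatorElement_def, map_mul, map_mul, map_mul, End.mul_apply, End.mul_apply,
          End.mul_apply, e, ← End.mul_apply (ρ y), rep_mul_inv, End.one_apply, hx u hu]
    exact a6 _ _ (a6 _ _ hcU hrR) hsR v (hU.mpr hμ)
  let D : Subgroup G :=
    { carrier := {a | a ∈ R ∧ ∀ b ∈ R, ∀ u ∈ U, ρ ⁅a, b⁆ u = u}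
      one_mem' := ⟨one_mem _, by simp⟩
      mul_mem' := fun {a a'} ha ha' => ⟨mul_mem ha.1 ha'.1, fun b hb u hu => by
        rw [commutatorElement_mul_left_of_central (mem_centralizer_iff.mp
          (hc (commutator_mem_commutator ha'.1 hb)) a ha.1), map_mul, End.mul_apply, ha.2 b hb u hu,
          ha'.2 b hb u hu]⟩
      inv_mem' := fun {a} ha => ⟨inv_mem ha.1, fun b hb u hu => by
        have e : ⁅a⁻¹, b⁆ * ⁅a, b⁆ = 1 := by
          rw [← commutatorElement_mul_left_of_central (mem_centralizer_iff.mp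
            (hc (commutator_mem_commutator (inv_mem ha.1) hb)) a ha.1)]
          simp
        conv_lhs => rw [← ha.2 b hb u hu]
        rw [← End.mul_apply, ← map_mul, e, map_one, End.one_apply]⟩ }
  have hZD : Z ≤ D := fun a ha => ⟨hZR ha, fun b hb u _ => by
    rw [commutatorElement_eq_one_iff_mul_comm.mpr (mem_centralizer_iff.mp (hc ha) b hb).symm,
      map_one, End.one_apply]⟩
  have hD' : _root_.commutator R ≤ D.subgroupOf R := by
    rw [subgroupOf, ← map_le_iff_le_comap, map_subtype_commutator]; exact hZD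
  have : (D.subgroupOf R).Normal := Normal.of_commutator_le _ hD'
  have : IsMulCommutative (R ⧸ D.subgroupOf R) :=
    Normal.quotient_commutative_iff_commutator_le.mpr hD'
  let ψ : P →* MulAut (R ⧸ D.subgroupOf R) := quotAct (conjAut hPR) _ (by
    rintro ⟨g, hg⟩ ⟨a, haR⟩ ⟨-, ha : ∀ b ∈ R, ∀ u ∈ U, ρ ⁅a, b⁆ u = u⟩
    refine ⟨Subtype.property _, fun b hb u hu => ?_⟩
    have e : ⁅g * a * g⁻¹, b⁆ = g * ⁅(a : G), g⁻¹ * b * g⁆ * g⁻¹ := by
      simp only [commutatorElement_def]; group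
    change ρ ⁅g * a * g⁻¹, b⁆ u = u
    rw [e, map_mul, map_mul, End.mul_apply, End.mul_apply,
      ha _ (conj_mem_of_le_normalizer' hPR hg hb) _ (hPU _ (inv_mem hg) u hu), ← End.mul_apply,
      rep_mul_inv, End.one_apply])
  have hmap : ⁅ψ.range, ψ.range⁆ = (A.subgroupOf P).map ψ := by
    rw [subgroupOf_commutator le_rfl le_rfl, map_commutator, subgroupOf_self,
      MonoidHom.range_eq_map]
  have hcomm := commutator_eq_bot_of_small hp hp2
    (hQ.coprime_dvd_left (((D.subgroupOf R).index_dvd_card).trans (card_dvd_of_le hRQ)))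
    (hP.of_surjective _ ψ.rangeRestrict_surjective) (by
      rw [hmap]
      rintro _ ⟨a, ha, rfl⟩
      refine ⟨by rw [← map_pow, ← map_one ψ]; exact congrArg ψ (Subtype.ext (by
        simpa using hexp a ha)), le_trans (card_range_commEnd_quotAct_le _ _ _) ?_⟩
      simpa using relIndex_commutator_le hp hq hqp ρ hR hc (hPR a.2) (m := 0) (hexp a ha)
        (by simpa using le_centralizer_iff.mp (zpowers_le.mpr (hzZ ha))) hRU (hPU a a.2)
        (fun t ht => ⟨μ ⟨t, ht⟩, fun u hu => hU.mp hu ⟨t, ht⟩⟩)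
        (fun u _ => by rw [hr a ha]; rfl) (D := D) fun r hr h => ⟨hr, h⟩)
  rw [hmap, Subgroup.map_eq_bot_iff] at hcomm
  exact ((quotAct_eq_one_iff _ _ _ _).mp (hcomm (show ⟨c, hcP⟩ ∈ A.subgroupOf P from hcA))
    ⟨r, hrR⟩).2 s hsR v (hU.mpr hμ)

end Cfsg.Agent.H1
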