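/-
The lower `{p, p'}`-series of a `p`-solvable group; a `p`-solvable group has a two-generated
subgroup whose lower series has the same length.
-/
import Cfsg.Agent.H1.SZ
import Cfsg.Agent.L.PiSep
import Cfsg.Agent.H8.PComplement

set_option autoImplicit false

namespace Cfsg.Agent.H1

open Subgroup Cfsg Cfsg.Agent.L

universe u

section
variable {G : Type*} [Group G]

/-- The subgroup generated by the elements of `H` whose order is a power of a prime in `σ`. -/
def piRes (σ : Set ℕ) (H : Subgroup G) : Subgroup G :=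
  closure {x | x ∈ H ∧ ∃ q ∈ σ, q.Prime ∧ ∃ k, orderOf x = q ^ k}

/-- Alternating iteration of `piRes`; the last step uses `σ`. -/
def piSer : ℕ → Set ℕ → Subgroup G → Subgroup G
  | 0, _, H => H
  | i + 1, σ, H => piRes σ (piSer i σᶜ H)

theorem piRes_le (σ : Set ℕ) (H : Subgroup G) : piRes σ H ≤ H :=
  (closure_le _).mpr fun _ h => h.1

theorem piRes_mono (σ : Set ℕ) {H K : Subgroup G} (h : H ≤ K) : piRes σ H ≤ piRes σ K :=
  closure_mono fun _ hx => ⟨h hx.1, hx.2⟩

theorem piRes_bot (σ : Set ℕ) : piRes σ (⊥ : Subgroup G) = ⊥ := le_bot_iff.mp (piRes_le _ _)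

theorem map_piRes [Finite G] {G' : Type*} [Group G'] (f : G →* G') (σ : Set ℕ) (H : Subgroup G) :
    (piRes σ H).map f = piRes σ (H.map f) := by
  refine le_antisymm (map_le_iff_le_comap.mpr ((closure_le _).mpr ?_)) ((closure_le _).mpr ?_)
  · rintro x ⟨hx, q, hq, hq', k, hk⟩
    obtain ⟨j, -, hj⟩ := (Nat.dvd_prime_pow hq').mp (hk ▸ orderOf_map_dvd f x)
    exact subset_closure ⟨mem_map_of_mem f hx, q, hq, hq', j, hj⟩
  · rintro _ ⟨⟨x, hx, rfl⟩, q, hq, hq', k, hk⟩
    obtain ⟨a, b, ha, hb, e, -, h1, h2⟩ := H8.exists_pPart_pPrimePart hq' x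
    obtain ⟨j, -, hj⟩ := (Nat.dvd_prime_pow hq').mp
      (hk ▸ orderOf_dvd_of_mem_zpowers (f.map_zpowers x ▸ mem_map_of_mem f hb))
    have h3 := H8.eq_one_of_orderOf_pow_of_coprime hj (h2.coprime_dvd_left (orderOf_map_dvd f b))
    exact ⟨a, subset_closure ⟨(zpowers_le.mpr hx) ha, q, hq, hq', h1⟩, by
      rw [e, map_mul, h3, mul_one]⟩

theorem le_piRes_of_isPGroup {σ : Set ℕ} {H P : Subgroup G} {q : ℕ} (hq : q.Prime) (h : q ∈ σ)
    (hP : IsPGroup q P) (hPH : P ≤ H) : P ≤ piRes σ H := fun _ hx =>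
  have := Fact.mk hq
  subset_closure ⟨hPH hx, q, h, hq, H8.exists_orderOf_eq_pow_of_mem hP hx⟩

theorem isPiNum_relIndex_piRes [Finite G] (σ : Set ℕ) (H : Subgroup G) :
    IsPiNum σᶜ ((piRes σ H).relIndex H) := fun q hq hd h => by
  have := Fact.mk hq
  obtain ⟨P, h1, h2, h3⟩ := exists_sylow_le q H
  exact h3 (hd.trans (relIndex_dvd_of_le_left H (le_piRes_of_isPGroup hq h h2 h1)))

theorem piRes_le_of_relIndex {σ : Set ℕ} {H D : Subgroup G} [D.Normal]
    (h : IsPiNum σᶜ (D.relIndex H)) : piRes σ H ≤ D := (closure_le _).mpr <| by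
  rintro x ⟨hx, q, hq, hq', k, hk⟩
  refine H8.mem_of_pow_mem_of_coprime ?_ (pow_relIndex_mem D hx)
  rw [hk]
  exact Nat.Coprime.pow_left _ ((Nat.Prime.coprime_iff_not_dvd hq').mpr fun e => h q hq' e hq)

theorem piRes_eq_bot_iff [Finite G] {σ : Set ℕ} {H : Subgroup G} :
    piRes σ H = ⊥ ↔ IsPiSubgroup σᶜ H := by
  refine ⟨fun h => ?_, fun h => le_bot_iff.mp (piRes_le_of_relIndex (by rwa [relIndex_bot_left]))⟩
  have := isPiNum_relIndex_piRes σ H
  rwa [h, relIndex_bot_left] at this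

theorem piSer_le : ∀ (i : ℕ) (σ : Set ℕ) (H : Subgroup G), piSer i σ H ≤ H
  | 0, _, _ => le_rfl
  | i + 1, σ, H => (piRes_le _ _).trans (piSer_le i σᶜ H)

theorem piSer_mono {H K : Subgroup G} (h : H ≤ K) :
    ∀ (i : ℕ) (σ : Set ℕ), piSer i σ H ≤ piSer i σ K
  | 0, _ => h
  | i + 1, σ => piRes_mono _ (piSer_mono h i σᶜ)

theorem map_piSer [Finite G] {G' : Type*} [Group G'] (f : G →* G') (H : Subgroup G) :
    ∀ (i : ℕ) (σ : Set ℕ), (piSer i σ H).map f = piSer i σ (H.map f)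
  | 0, _ => rfl
  | i + 1, σ => by rw [piSer, map_piRes, map_piSer f H i σᶜ, piSer]

theorem le_normalizer_piSer [Finite G] (i : ℕ) (σ : Set ℕ) (H : Subgroup G) :
    H ≤ normalizer (piSer i σ H : Set G) := fun g hg => by
  rw [← map_conj_eq_self_iff, map_piSer, map_conj_eq_self_iff.mpr (le_normalizer hg)]

theorem piSer_top_normal [Finite G] (i : ℕ) (σ : Set ℕ) : (piSer i σ (⊤ : Subgroup G)).Normal :=
  normalizer_eq_top_iff.mp (top_le_iff.mp (le_normalizer_piSer i σ ⊤))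

theorem piSer_subtype [Finite G] (i : ℕ) (σ : Set ℕ) (H : Subgroup G) :
    piSer i σ (⊤ : Subgroup H) = ⊥ ↔ piSer i σ H = ⊥ := by
  rw [← map_eq_bot_iff_of_injective _ H.subtype_injective, map_piSer, ← MonoidHom.range_eq_map,
    range_subtype]

theorem exists_piSer_eq_bot {π : Set ℕ} {M : Subgroup G} (h : SepUpTo π G M) :
    ∃ k, ∀ σ, σ = π ∨ σᶜ = π → piSer k σ M = ⊥ := by
  induction h with
  | bot => exact ⟨0, fun _ _ => rfl⟩
  | step N M h1 h2 h3 h4 ih =>
    obtain ⟨k, hk⟩ := ih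
    have := h1.normal
    have h5 : ∀ j σ, σ = π ∨ σᶜ = π → piSer (j + 2) σ M ≤ piSer j σ N := by
      intro j
      induction j with
      | zero =>
        intro σ hσ
        have : IsPiNum σᶜ (N.relIndex M) ∨ IsPiNum σᶜᶜ (N.relIndex M) := by
          rcases hσ with rfl | rfl
          · rw [compl_compl]; exact h4.symm
          · exact h4
        rcases this with h | h
        · exact (piRes_mono _ (piRes_le _ _)).trans (piRes_le_of_relIndex (D := N) h)
        · exact (piRes_le _ _).trans (piRes_le_of_relIndex (D := N) h)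
      | succ j ih => exact fun σ hσ => piRes_mono _ (ih σᶜ (by rw [compl_compl]; exact hσ.symm))
    exact ⟨k + 2, fun σ hσ => le_bot_iff.mp ((h5 k σ hσ).trans (hk σ hσ).le)⟩

end

theorem exists_two_gen_step {G : Type u} [Group G] [Finite G] {σ : Set ℕ} (hG : PiSep σ G)
    (hsol : ∀ A B : Subgroup G, IsPiSubgroup σᶜ A → IsPiSubgroup σ B →
      Group.IsSolvable A ∨ Group.IsSolvable B) (j : ℕ) (h0 : piSer (j + 2) σ (⊤ : Subgroup G) ≠ ⊥)
    (hq : ∀ D : Subgroup G, D.Normal → D ≠ ⊥ → piSer (j + 2) σ ⊤ ≤ D)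
    (h1 : ∀ M : Subgroup G, M ≠ ⊤ → piSer (j + 2) σ M = ⊥)
    (hs : ∀ M : Subgroup G, M ≠ ⊤ → piSer (j + 1) σᶜ M ≠ ⊥ →
      ∃ a ∈ M, ∃ b ∈ M, piSer (j + 1) σᶜ (closure {a, b}) ≠ ⊥) :
    ∃ a b : G, closure {a, b} = ⊤ := by
  by_contra hno
  push Not at hno
  have := piSer_top_normal (G := G) (j + 2) σ
  have := piSer_top_normal (G := G) (j + 1) σᶜ
  set N := piSer (j + 2) σ (⊤ : Subgroup G) with hN
  set K := piSer (j + 1) σᶜ (⊤ : Subgroup G) with hK
  have hNK : N ≤ K := piRes_le _ _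
  have hn : ∀ A : Subgroup G, A ≤ normalizer (N : Set G) := fun A => le_normalizer_of_normal
  have hmin : IsMinNormal N := ⟨inferInstance, h0, fun D hD h => or_iff_not_imp_left.mpr
    fun e => le_antisymm h (hq D hD e)⟩
  have hNσ : IsPiSubgroup σ N := (hmin.isPiSubgroup_or (hG.subgroup N)).resolve_right fun e =>
    h0 (le_bot_iff.mp ((piRes_le_of_relIndex (D := ⊥) (H := N) (by rwa [relIndex_bot_left])).trans'
      ((closure_le _).mpr fun x hx => subset_closure ⟨subset_closure hx, hx.2⟩)))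
  have hcop : ∀ {A : Subgroup G}, IsPiSubgroup σᶜ A → (Nat.card A).Coprime (Nat.card N) :=
    fun hA => (IsPiSubgroup.coprime hNσ hA).symm
  have cover : ∀ M : Subgroup G, M ⊔ N = ⊤ → piSer (j + 1) σᶜ M ⊔ N = K := fun M hM => by
    have h2 : M.map (QuotientGroup.mk' N) = (⊤ : Subgroup G).map (QuotientGroup.mk' N) := by
      rw [← hM, Subgroup.map_sup, (map_eq_bot_iff N).mpr (QuotientGroup.ker_mk' N).ge, sup_bot_eq]
    have h3 := congrArg (comap (QuotientGroup.mk' N)) (map_piSer (QuotientGroup.mk' N) M (j + 1) σᶜ)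
    rwa [h2, ← map_piSer, comap_map_eq, comap_map_eq, QuotientGroup.ker_mk',
      sup_eq_left.mpr hNK] at h3
  have conj : ∀ {A B : Subgroup G}, IsPiSubgroup σᶜ A → IsPiSubgroup σᶜ B → A ⊔ N = K →
      B ⊔ N = K → ∃ n ∈ N, B.map (MulAut.conj n).toMonoidHom = A := fun hA hB h2 h3 =>
    exists_conj_eq_of_le_sup (hn _) (hcop hA) (hsol _ _ hA hNσ) (h2 ▸ h3 ▸ le_sup_left)
      (Nat.eq_of_mul_eq_mul_right (Nat.card_pos (α := N)) (by
        rw [← card_sup_of_coprime (hn _) (hcop hA), ← card_sup_of_coprime (hn _) (hcop hB), h2, h3]))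
  have cent : ∀ {A Q : Subgroup G}, IsPiSubgroup σᶜ A → Q ≤ N → Q ≤ normalizer (A : Set G) →
      A ≤ centralizer (Q : Set G) := fun {A Q} hA h2 h3 => by
    rw [← commutator_eq_bot_iff_le_centralizer, eq_bot_iff, ← inf_eq_bot_of_coprime' (hcop hA)]
    exact le_inf (commutator_le_of_le_normalizer h3) ((commutator_mono le_rfl h2).trans
      (commutator_le_right _ _))
  obtain ⟨R, hRK, hR, hRN, hc⟩ := exists_complement_of_coprime hNK (hn K)
    (IsPiNum.coprime hNσ (isPiNum_relIndex_piRes σ K))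
  have hRσ : IsPiSubgroup σᶜ R := isPiSubgroup_iff_isPiNum.mpr (hc ▸ isPiNum_relIndex_piRes σ K)
  have hNR : ¬ N ≤ R := fun e => h0 (le_bot_iff.mp (hRN ▸ le_inf e le_rfl))
  have hRC : ¬ R ≤ centralizer (N : Set G) := fun e => hNR (hNK.trans ((closure_le _).mpr <| by
    rintro x ⟨hx, q, hq1, hq2, k, hk⟩
    have h2 : IsPiSubgroup σᶜ (zpowers x) := fun r hr hd => by
      rw [Nat.card_zpowers, hk] at hd
      exact (Nat.prime_dvd_prime_iff_eq hr hq2).mp (hr.dvd_of_dvd_pow hd) ▸ hq1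
    obtain ⟨n, h3, h4⟩ := exists_conj_le_of_le_sup (hn R) (hcop hRσ) (hsol _ _ hRσ hNσ)
      (B := zpowers x) (hR ▸ zpowers_le.mpr (subset_closure ⟨hx, q, hq1, hq2, k, hk⟩)) (hcop h2)
    have h5 := map_conj_le_iff.mp h4 x (mem_zpowers x)
    have h6 := e h5 n h3
    have : x = n * x * n⁻¹ := by
      rw [inv_mul_cancel_right] at h6
      exact mul_left_cancel h6.symm
    exact this ▸ h5))
  obtain ⟨q, hq1, hq2⟩ : ∃ q : ℕ, q.Prime ∧ IsPGroup q N := by
    by_contra hp
    refine hRC (le_centralizer_iff.mp (relIndex_eq_one.mp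
      (Nat.eq_one_iff_not_exists_prime_dvd.mpr fun q hq1 hd => ?_)))
    have := Fact.mk hq1
    obtain ⟨Q, h2, h3, h4⟩ := exists_sylow_le q N
    have h5 : normalizer (Q : Set G) ≠ ⊤ := fun e => by
      by_cases h6 : Q = ⊥
      · rw [h6, relIndex_bot_left] at h4
        exact h4 (hd.trans (relIndex_dvd_card _ _))
      · exact hp ⟨q, hq1, h3.to_le (hq Q (normalizer_eq_top_iff.mp e) h6)⟩
    have h6 : normalizer (Q : Set G) ⊔ N = ⊤ := eq_top_iff.mpr fun g _ => by
      obtain ⟨n, h7, h8⟩ := frattini_argument h2 h3 h4 (hn ⊤ (mem_top g))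
      rw [← inv_mul_cancel_left n g]
      exact mul_mem (mem_sup_right (inv_mem h7)) (mem_sup_left h8)
    have h7 := piRes_eq_bot_iff.mp (h1 _ h5)
    obtain ⟨n, h8, h9⟩ := conj hRσ h7 hR (cover _ h6)
    have h10 : Q.map (MulAut.conj n).toMonoidHom ≤ centralizer (R : Set G) := by
      rw [← h9, centralizer_map_conj]
      exact map_mono (le_centralizer_iff.mp (cent h7 h2
        (le_normalizer.trans (le_normalizer_piSer _ _ _))))
    rw [← relIndex_map_conj Q N n, map_conj_eq_self_iff.mpr (hn N h8)] at h4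
    exact h4 (hd.trans (relIndex_dvd_of_le_left N h10))
  have := Fact.mk hq1
  have := isSolvable_of_isPGroup hq2
  have := hmin.isMulCommutative_of_isSolvable
  have nor : ∀ {M D : Subgroup G}, M ⊔ N = ⊤ → M ≤ normalizer (D : Set G) →
      D ≤ centralizer (N : Set G) → D.Normal := fun h2 h3 h4 => normalizer_eq_top_iff.mp
    (top_le_iff.mp (h2 ▸ sup_le h3 (le_normalizer_of_le_centralizer (le_centralizer_iff.mp h4))))
  set M := normalizer (R : Set G)
  have hM : M ⊔ N = ⊤ := eq_top_iff.mpr fun g _ => by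
    obtain ⟨n, h2, h3⟩ := conj hRσ (IsPiSubgroup.map hRσ (MulAut.conj g).toMonoidHom) hR (by
      rw [← map_conj_eq_self_iff.mpr (hn ⊤ (mem_top g)), ← Subgroup.map_sup, hR,
        map_conj_eq_self_iff.mpr (le_normalizer_of_normal (K := ⊤) (mem_top g))])
    rw [map_conj_map_conj, map_conj_eq_self_iff] at h3
    rw [← inv_mul_cancel_left n g]
    exact mul_mem (mem_sup_right (inv_mem h2)) (mem_sup_left h3)
  have hMN : M ⊓ N = ⊥ := by
    by_contra e
    exact hRC (cent hRσ le_rfl ((hq _ (nor hM (le_normalizer_inf le_normalizer (hn _))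
      (inf_le_right.trans (le_centralizer N))) e).trans inf_le_left))
  have hD : R ⊓ centralizer (N : Set G) = ⊥ := by
    by_contra e
    exact hNR ((hq _ (nor hM (le_normalizer_inf le_rfl (le_normalizer_centralizer (hn _)))
      inf_le_right) e).trans inf_le_left)
  have hMt : M ≠ ⊤ := fun e => h0 (by rw [← hMN, e, top_inf_eq])
  obtain ⟨a, ha, b, hb, h2⟩ := hs M hMt fun e => hRC (by
    have := cover M hM
    rw [e, bot_sup_eq] at this
    exact (hRK.trans this.ge).trans (le_centralizer N))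
  have hB : closure {a, b} ≤ M := (closure_le _).mpr (Set.pair_subset ha hb)
  have h3 : closure {a, b} ⊔ N = ⊤ := by
    by_contra e
    refine h2 (le_bot_iff.mp (hD ▸ le_inf ?_ ((piSer_mono le_sup_left _ _).trans (cent
      (piRes_eq_bot_iff.mp (h1 _ e)) le_rfl (le_sup_right.trans (le_normalizer_piSer _ _ _))))))
    have := dedekind_left (hn R) (le_normalizer (H := R))
    rw [hMN, sup_bot_eq, hR] at this
    exact this ▸ le_inf ((piSer_le _ _ _).trans hB) (piSer_mono le_top _ _)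
  have h4 : ∀ c ∈ M, ∀ n ∈ N, ∀ m ∈ N, n⁻¹ * (c * m) * n ∈ M → c⁻¹ * n * c * n⁻¹ = m :=
    fun c hc n h4 m h5 h6 => by
      have : c⁻¹ * (n⁻¹ * (c * m) * n) ∈ M ⊓ N := ⟨M.mul_mem (M.inv_mem hc) h6, by
        rw [show c⁻¹ * (n⁻¹ * (c * m) * n) = c⁻¹ * n⁻¹ * c * m * n by group]
        exact N.mul_mem (N.mul_mem (conj_mem_of_le_normalizer' (hn M) hc (N.inv_mem h4)) h5) h4⟩
      rw [hMN, mem_bot] at this
      rw [show m = c⁻¹ * n * c * (c⁻¹ * (n⁻¹ * (c * m) * n)) * n⁻¹ by group, this, mul_one]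
  have h5 : ∀ c ∈ M, ∀ n : N, c⁻¹ * n * c * (n : G)⁻¹ ∈ N := fun c hc n =>
    mul_mem (conj_mem_of_le_normalizer' (hn M) hc n.2) (inv_mem n.2)
  have h6 := Nat.card_le_card_of_surjective
    (fun n : N => ((⟨_, h5 a ha n⟩ : N), (⟨_, h5 b hb n⟩ : N))) <| by
    rintro ⟨⟨m₁, hm₁⟩, m₂, hm₂⟩
    have h6 : closure {a * m₁, b * m₂} ⊔ N = ⊤ := by
      rw [eq_top_iff, ← h3]
      refine sup_le ((closure_le _).mpr (Set.pair_subset ?_ ?_)) le_sup_right
      · rw [← mul_inv_cancel_right a m₁]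
        exact mul_mem (mem_sup_left (subset_closure (by simp))) (mem_sup_right (inv_mem hm₁))
      · rw [← mul_inv_cancel_right b m₂]
        exact mul_mem (mem_sup_left (subset_closure (by simp))) (mem_sup_right (inv_mem hm₂))
    obtain ⟨n, h7, h8⟩ := conj (piRes_eq_bot_iff.mp (h1 _ (hno _ _))) hRσ (cover _ h6) hR
    have h9 := le_normalizer_piSer (j + 1) σᶜ (closure {a * m₁, b * m₂})
    rw [← h8, normalizer_map_conj] at h9
    exact ⟨⟨n, h7⟩, Prod.ext
      (Subtype.ext (h4 a ha n h7 m₁ hm₁ (mem_map_conj.mp (h9 (subset_closure (by simp))))))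
      (Subtype.ext (h4 b hb n h7 m₂ hm₂ (mem_map_conj.mp (h9 (subset_closure (by simp))))))⟩
  rw [Nat.card_prod] at h6
  have := (one_lt_card_iff_ne_bot N).mpr h0
  nlinarith

/-- A `p`-solvable group has a two-generated subgroup with lower series of the same length. -/
theorem exists_two_gen {p : ℕ} (hp : p.Prime) (G : Type u) [Group G] [Finite G] :
    PiSep {p} G → ∀ k σ, σ = {p} ∨ σᶜ = {p} → piSer k σ (⊤ : Subgroup G) ≠ ⊥ →
      ∃ a b : G, piSer k σ (closure {a, b}) ≠ ⊥ := by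
  refine induction_on_card (P := fun G _ _ => PiSep {p} G → ∀ k σ, σ = {p} ∨ σᶜ = {p} →
    piSer k σ (⊤ : Subgroup G) ≠ ⊥ → ∃ a b : G, piSer k σ (closure {a, b}) ≠ ⊥) G ?_
  intro G _ _ ih hG k σ hσ h0
  have hs : ∀ M : Subgroup G, M ≠ ⊤ → ∀ k σ, σ = {p} ∨ σᶜ = {p} → piSer k σ M ≠ ⊥ →
      ∃ a ∈ M, ∃ b ∈ M, piSer k σ (closure {a, b}) ≠ ⊥ := fun M hM k σ hσ h => by
    obtain ⟨a, b, h1⟩ := ih M (card_lt_of_ne_top hM) (hG.subgroup M) k σ hσ
      (mt (piSer_subtype k σ M).mp h)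
    refine ⟨a, a.2, b, b.2, fun e => h1 ?_⟩
    rw [← map_eq_bot_iff_of_injective _ M.subtype_injective, map_piSer, MonoidHom.map_closure,
      Set.image_pair]
    exact e
  match k with
  | 0 =>
    obtain ⟨a, -, ha⟩ := (bot_or_exists_ne_one _).resolve_left h0
    exact ⟨a, a, fun e => ha (mem_bot.mp (e.le (subset_closure (by simp))))⟩
  | 1 =>
    by_contra hno
    push Not at hno
    exact h0 (le_bot_iff.mp ((closure_le _).mpr fun x hx =>
      (hno x x).le (subset_closure ⟨subset_closure (by simp), hx.2⟩)))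
  | j + 2 =>
    by_contra hno
    push Not at hno
    have := Fact.mk hp
    obtain ⟨a, b, h⟩ := exists_two_gen_step (σ := σ) (by
      rcases hσ with rfl | e
      · exact hG
      · rw [← compl_compl σ, e]; exact hG.compl) (fun A B hA hB => by
      rcases hσ with rfl | e
      · exact Or.inr (isSolvable_of_isPGroup ((isPiSubgroup_singleton_iff hp).mp hB))
      · exact Or.inl (isSolvable_of_isPGroup ((isPiSubgroup_singleton_iff hp).mp (e ▸ hA)))) j h0
      (fun D hD hD' => by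
        rw [← QuotientGroup.ker_mk' D, ← Subgroup.map_eq_bot_iff, map_piSer,
          map_top_of_surjective _ (QuotientGroup.mk'_surjective D)]
        by_contra e
        obtain ⟨a, b, h1⟩ := ih (G ⧸ D) (card_quotient_lt D hD') (hG.quotient D) _ σ hσ e
        obtain ⟨a, rfl⟩ := QuotientGroup.mk'_surjective D a
        obtain ⟨b, rfl⟩ := QuotientGroup.mk'_surjective D b
        rw [← Set.image_pair, ← MonoidHom.map_closure, ← map_piSer, hno,
          Subgroup.map_bot] at h1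
        exact h1 rfl)
      (fun M hM => by_contra fun e => by
        obtain ⟨a, -, b, -, h⟩ := hs M hM _ σ hσ e
        exact h (hno a b))
      fun M hM => hs M hM _ σᶜ (by rw [compl_compl]; exact hσ.symm)
    exact h0 (h ▸ hno a b)

end Cfsg.Agent.H1
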