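import Cfsg.Agent.H1.PExp
import Cfsg.Agent.H2.TwoConj

/-! Two-generator criteria for membership in `O_{p'}(G)` and `O_{p',p}(G)` of a `p`-solvable
group. -/

set_option autoImplicit false

open Subgroup
open scoped commutatorElement

namespace Cfsg.Agent.H1

variable {G : Type*} [Group G]

/-- The subgroup generated by the conjugates of `z` under `M`. -/
def ncl (M : Subgroup G) (z : G) : Subgroup G := closure {x | ∃ m ∈ M, x = m * z * m⁻¹}

theorem conj_mem_ncl {M : Subgroup G} {z m : G} (hm : m ∈ M) : m * z * m⁻¹ ∈ ncl M z :=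
  subset_closure ⟨m, hm, rfl⟩

theorem self_mem_ncl (M : Subgroup G) (z : G) : z ∈ ncl M z := by
  simpa using conj_mem_ncl (z := z) (one_mem M)

theorem ncl_le {M N : Subgroup G} {z : G} (hM : M ≤ normalizer (N : Set G)) (hz : z ∈ N) :
    ncl M z ≤ N := (closure_le _).mpr (by
  rintro _ ⟨m, hm, rfl⟩; exact conj_mem_of_le_normalizer hM hm hz)

theorem le_normalizer_ncl [Finite G] (M : Subgroup G) (z : G) : M ≤ normalizer (ncl M z : Set G) :=
  fun g hg => L.mem_normalizer_closure_of_conj_mem (by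
    rintro _ ⟨m, hm, rfl⟩; exact ⟨g * m, mul_mem hg hm, by group⟩)

theorem ncl_mono {M N : Subgroup G} (h : M ≤ N) (z : G) : ncl M z ≤ ncl N z :=
  closure_mono (by rintro _ ⟨m, hm, rfl⟩; exact ⟨m, h hm, rfl⟩)

theorem map_ncl {H : Type*} [Group H] (f : G →* H) (M : Subgroup G) (z : G) :
    (ncl M z).map f = ncl (M.map f) (f z) := by
  rw [ncl, MonoidHom.map_closure, ncl]
  congr 1
  ext x
  constructor
  · rintro ⟨_, ⟨m, hm, rfl⟩, rfl⟩; exact ⟨f m, ⟨m, hm, rfl⟩, by simp⟩
  · rintro ⟨_, ⟨m, hm, rfl⟩, rfl⟩; exact ⟨_, ⟨m, hm, rfl⟩, by simp⟩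

theorem mem_pPrimeCore_of_mem_pPrimePCore [Finite G] {p : ℕ} {a : G} (h : a ∈ pPrimePCore p G)
    (ha : (orderOf a).Coprime p) : a ∈ pPrimeCore p G :=
  (QuotientGroup.eq_one_iff _).mp (eq_one_of_mem_of_isPGroup (L.isPGroup_pCore p) h
    (ha.coprime_dvd_left (orderOf_map_dvd (QuotientGroup.mk' _) _)))

theorem coprime_orderOf_of_mem_pPrimeCore [Finite G] {p : ℕ} {a : G} (h : a ∈ pPrimeCore p G) :
    (orderOf a).Coprime p :=
  (L.coprime_card_pPrimeCore p).coprime_dvd_left (orderOf_dvd_natCard _ h)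

theorem hasNPC_pPrimePCore [Finite G] {p : ℕ} [hp : Fact p.Prime] :
    HasNormalPComplement p (pPrimePCore p G) := by
  rw [H8.hasNPC_iff_mul_coprime]
  intro a b ha hb
  rw [← orderOf_coe] at ha hb ⊢
  exact coprime_orderOf_of_mem_pPrimeCore (mul_mem (mem_pPrimeCore_of_mem_pPrimePCore a.2 ha)
    (mem_pPrimeCore_of_mem_pPrimePCore b.2 hb))

/-- A `p'`-element whose commutators with all `p`-elements are `p'`-elements lies in `O_{p'}`. -/
theorem mem_pPrimeCore_of_commutator [Finite G] {p : ℕ} (hp : p.Prime) (hG : IsPSolvable p G)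
    {s : G} (hs : (orderOf s).Coprime p)
    (h : ∀ b : G, (∃ k, b ^ p ^ k = 1) → (orderOf ⁅s, b⁆).Coprime p) : s ∈ pPrimeCore p G := by
  rw [← QuotientGroup.eq_one_iff]
  refine eq_one_of_mem_of_isPGroup (L.isPGroup_pCore p) (L.centralizer_pCore_le hp
    (L.IsPSolvable.quotient hp hG _) (L.pPrimeCore_quotient_pPrimeCore hp) ?_)
    (hs.coprime_dvd_left (orderOf_map_dvd (QuotientGroup.mk' _) _))
  rw [mem_centralizer_iff]
  intro v hv
  obtain ⟨k, hk⟩ := L.isPGroup_pCore p ⟨v, hv⟩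
  obtain ⟨b, rfl, hb⟩ := exists_lift_pElement (QuotientGroup.mk'_surjective _) hp
    (congrArg Subtype.val hk : v ^ p ^ k = 1)
  refine (commutatorElement_eq_one_iff_mul_comm.mp (eq_one_of_mem_of_isPGroup (L.isPGroup_pCore p)
    (mul_mem (Normal.conj_mem inferInstance _ hv _) (inv_mem hv)) ?_)).symm
  rw [← QuotientGroup.mk'_apply, ← map_commutatorElement]
  exact (h b hb).coprime_dvd_left (orderOf_map_dvd _ _)

/-- A `p`-element `z` whose normal closure in `⟨z, b⟩` has a normal `p`-complement for every `b`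
lies in `O_{p',p}`. -/
theorem mem_pPrimePCore_of_ncl [Finite G] {p : ℕ} (hp : p.Prime) (hG : IsPSolvable p G) {z : G}
    {l : ℕ} (hz : z ^ p ^ l = 1)
    (h : ∀ b, HasNormalPComplement p (ncl (zpowers z ⊔ zpowers b) z)) : z ∈ pPrimePCore p G := by
  have := Fact.mk hp
  obtain ⟨H, _, _, f, hf, h1, h2, h3, h4⟩ := exists_std hp hG
  rw [← h4, mem_comap]
  replace h : ∀ b, HasNormalPComplement p (ncl (zpowers (f z) ⊔ zpowers b) (f z)) := fun b => by
    obtain ⟨b, rfl⟩ := hf b
    have := H8.hasNPC_map (h b) f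
    rwa [map_ncl, Subgroup.map_sup, MonoidHom.map_zpowers, MonoidHom.map_zpowers] at this
  replace hz : f z ^ p ^ l = 1 := by rw [← map_pow, hz, map_one]
  generalize f z = z at h hz
  have hC := L.centralizer_pCore_le hp h1 h2
  have hVp := L.isPGroup_pCore (G := H) p
  set V := pCore p H
  by_contra hzV
  obtain ⟨y, hy, hyz⟩ := exists_commutator_ne_one_of_pCore_eq_bot hp
    (L.IsPSolvable.quotient hp h1 V) (L.pCore_quotient_pCore hp) (z := (z : H ⧸ V)) (k := l)
    (by rw [← QuotientGroup.mk_pow, hz, QuotientGroup.mk_one])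
    (by rwa [Ne, QuotientGroup.eq_one_iff])
  obtain ⟨y, rfl⟩ := QuotientGroup.mk_surjective y
  let Q : H → Subgroup H := fun b => pResidualOf p (ncl (zpowers z ⊔ zpowers b) z)
  have hQc : ∀ b, (Nat.card V).Coprime (Nat.card (Q b)) := fun b =>
    (coprime_card_of_isPGroup hVp (by
      exact (H8.hasNPC_iff_coprime_pResidual.mp (h b)).coprime_dvd_left (card_map_dvd _ _))).symm
  have hQn : ∀ b, zpowers z ⊔ zpowers b ≤ normalizer (Q b : Set H) := fun b =>
    (le_normalizer_ncl _ z).trans (H8.le_normalizer_pResidualOf p _)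
  have hQm : ∀ b, (Q b).map (QuotientGroup.mk' V) =
      pResidualOf p (ncl (zpowers (z : H ⧸ V) ⊔ zpowers (b : H ⧸ V)) z) := fun b => by
    rw [H2.map_pResidualOf hp, map_ncl, Subgroup.map_sup, MonoidHom.map_zpowers,
      MonoidHom.map_zpowers]; rfl
  have hQle : ∀ b b' : H, (b : H ⧸ V) = b' →
      ∃ n ∈ V, (Q b).map (MulAut.conj n).toMonoidHom ≤ Q b' := fun b b' hb =>
    exists_conj_le_of_le_sup le_normalizer_of_normal (hQc b').symm
      (Or.inr (isSolvable_of_isPGroup hVp)) (by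
        rw [← QuotientGroup.ker_mk' V, ← comap_map_eq, ← map_le_iff_le_comap, hQm, hQm, hb])
      (hQc b).symm
  have hVQ : Q y ≤ normalizer (V : Set H) := le_normalizer_of_normal
  set U := ⁅V, Q y⁆
  have hUV : U ≤ V := commutator_le_of_le_normalizer hVQ
  have hUn : normalizer (Q y : Set H) ≤ normalizer (U : Set H) :=
    le_normalizer_commutator le_normalizer_of_normal le_rfl
  have hUN : ∀ u ∈ U, u ∈ normalizer (Q y : Set H) → u = 1 := fun u hu hn => by
    have h5 : u ∈ V ⊓ normalizer (Q y : Set H) := mem_inf.mpr ⟨hUV hu, hn⟩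
    rw [inf_normalizer_eq_inf_centralizer hVQ (inf_eq_bot_of_coprime' (hQc y).symm)] at h5
    exact mem_bot.mp (centralizer_inf_commutator_eq_bot h3.1 hVQ (hQc y).symm ▸
      mem_inf.mpr ⟨(mem_inf.mp h5).2, hu⟩)
  have hzN := hQn y (mem_sup_left (mem_zpowers z))
  have hyN := hQn y (mem_sup_right (mem_zpowers y))
  have hcomm : ∀ g ∈ normalizer (Q y : Set H), ∀ u ∈ U, ⁅u, g⁆ ∈ U := fun g hg u hu => by
    rw [← commutatorElement_inv]
    exact inv_mem (mul_mem (conj_mem_of_le_normalizer hUn hg hu) (inv_mem hu))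
  have key : ∀ v ∈ U, ∃ u ∈ U ⊓ centralizer {z}, ⁅y, u⁆ = v := by
    intro v hv
    have hb : ((v * y : H) : H ⧸ V) = y := by
      rw [QuotientGroup.mk_mul, (QuotientGroup.eq_one_iff _).mpr (hUV hv), one_mul]
    obtain ⟨n, hn, a1⟩ := hQle _ _ hb
    obtain ⟨n', -, a2⟩ := hQle _ _ hb.symm
    have a3 := eq_of_le_of_card_le a1 (by
      rw [card_map_conj, ← card_map_conj _ n']; exact card_le_of_le a2)
    obtain ⟨c, hc, u, hu, rfl⟩ := exists_centralizer_mul_commutator hVQ (hQc y).symm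
      (Or.inr (isSolvable_of_isPGroup hVp)) hn
    have hcN : c ∈ normalizer (Q y : Set H) := centralizer_le_normalizer _ (mem_inf.mp hc).2
    have a4 : ∀ g ∈ normalizer (Q (v * y) : Set H), u * g * u⁻¹ ∈ normalizer (Q y : Set H) := by
      intro g hg
      have a5 : c * u * g * (c * u)⁻¹ ∈ normalizer (Q y : Set H) := by
        rw [← a3, normalizer_map_conj]; exact ⟨g, hg, rfl⟩
      have a6 := mul_mem (mul_mem (inv_mem hcN) a5) hcN
      convert a6 using 1
      group
    refine ⟨u, mem_inf.mpr ⟨hu, mem_centralizer_singleton_iff.mpr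
      (commutatorElement_eq_one_iff_mul_comm.mp (hUN _ (hcomm z hzN u hu) (mul_mem
        (a4 z (hQn _ (mem_sup_left (mem_zpowers z)))) (inv_mem hzN))))⟩, ?_⟩
    have a7 := hUN (v * ⁅u, y⁆) (mul_mem hv (hcomm y hyN u hu)) (by
      have a8 := mul_mem (a4 _ (hQn _ (mem_sup_right (mem_zpowers _)))) (inv_mem hyN)
      have := h3.1
      rw [← mul_assoc, setLike_mul_comm (hUV hu) (hUV hv)] at a8
      convert a8 using 1
      simp only [commutatorElement_def, mul_assoc])
    rw [← commutatorElement_inv, eq_comm, eq_inv_iff_mul_eq_one, a7]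
  have hUz : U ⊓ centralizer {z} = U := by
    refine eq_of_le_of_card_le inf_le_left (Nat.card_le_card_of_surjective
      (fun u : (U ⊓ centralizer {z} : Subgroup H) => (⟨⁅y, (u : H)⁆, by
        rw [← commutatorElement_inv]; exact inv_mem (hcomm y hyN _ (mem_inf.mp u.2).1)⟩ : U)) ?_)
    intro v
    obtain ⟨u, hu, h⟩ := key v v.2
    exact ⟨⟨u, hu⟩, Subtype.ext h⟩
  have hQU : Q y ≤ centralizer (U : Set H) := (H8.pResidualOf_le p _).trans
    (ncl_le ((hQn y).trans (hUn.trans (normalizer_le_normalizer_centralizer U)))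
      (mem_centralizer_iff_le.mpr (hUz ▸ inf_le_right)))
  have hQV : Q y ≤ V := (le_centralizer_of_commutator_le hVQ (hQc y).symm le_rfl hQU).trans hC
  have h5 : ⁅(y : H ⧸ V), (z : H ⧸ V)⁆ ∈ (Q y).map (QuotientGroup.mk' V) := by
    rw [hQm]
    refine H8.mem_pResidualOf_of_coprime (mul_mem (conj_mem_ncl (mem_sup_right (mem_zpowers _)))
      (inv_mem (self_mem_ncl _ _))) (coprime_orderOf_of_mem_pPrimeCore ?_)
    rw [← commutatorElement_inv]
    exact inv_mem (mul_mem (Normal.conj_mem inferInstance _ hy _) (inv_mem hy))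
  obtain ⟨x, hx, hx'⟩ := h5
  exact hyz (hx'.symm.trans ((QuotientGroup.eq_one_iff _).mpr (hQV hx)))

end Cfsg.Agent.H1
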